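-- helper20: SUG (S2412) package [CONJ]: the centres of `K` are `K`-stable; also [SMUL].
import Mathlib
import Cfsg.Agent.Lib.Helper60.SUG.Defs
import Cfsg.Agent.Lib.Helper13.UTransvComm

set_option autoImplicit false

namespace Cfsg.Agent.Lib.Helper20.SUG

open Matrix Cfsg.Agent.Lib.Helper60.SUG Cfsg.Agent.Lib.Helper13 Cfsg.Agent.Lib.Helper45

universe u

theorem mat_isHermIso {F : Type u} [Field F] {q n : ℕ} (g : ↥(Cfsg.SU n F q)) :
    IsHermIso n F q (mat g) := g.2

theorem mat_mul' {F : Type u} [Field F] {q n : ℕ} (g h : ↥(Cfsg.SU n F q)) :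
    mat (g * h) = mat g * mat h := rfl

theorem mat_inv_mul {F : Type u} [Field F] {q n : ℕ} (g : ↥(Cfsg.SU n F q)) :
    mat g⁻¹ * mat g = 1 := by
  rw [← mat_mul', inv_mul_cancel]; rfl

/-- [CONJ] -/
theorem pkgConj : PkgConj.{u} := by
  intro F _ _ q n hF K v hv g hg
  obtain ⟨hv0, hvv, hall⟩ := hv
  have hG : IsHermIso n F q (mat g) := g.2
  have hinv : mat g⁻¹ * mat g = 1 := mat_inv_mul g
  refine ⟨?_, ?_, ?_⟩
  · intro h0
    apply hv0
    have h1 := congrArg (fun x => mat g⁻¹ *ᵥ x) h0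
    simp only [Matrix.mulVec_mulVec, hinv, Matrix.one_mulVec, Matrix.mulVec_zero] at h1
    exact h1
  · rw [hG v v]; exact hvv
  · intro g' c hc hg'
    have h1 : mat (g⁻¹ * g' * g) = Cfsg.unitaryTransvection n q v c := by
      rw [mat_mul', mat_mul', hg', Matrix.mul_assoc, ← utransv_conj hG v c, ← Matrix.mul_assoc,
        hinv, Matrix.one_mul]
    have h2 : g⁻¹ * g' * g ∈ K := hall _ c hc h1
    have h3 : g' = g * (g⁻¹ * g' * g) * g⁻¹ := by group
    rw [h3]
    exact K.mul_mem (K.mul_mem hg h2) (K.inv_mem hg)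

end Cfsg.Agent.Lib.Helper20.SUG
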